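import Cfsg.Agent.FGS2.J2.Elements
import Cfsg.Agent.FGS2.J2.U33Data
import Cfsg.Agent.Core.GTwoTwo.Unit9

/-! Kernel checks for the subgroup of index 100. -/

set_option autoImplicit false
set_option maxRecDepth 200000

namespace Cfsg.Agent.FGS2.J2

open Cfsg.Agent.Core.GTwoTwo (pU)

/-- A generator of the subgroup. -/
def uA (g : ℕ) : ℕ := el (uGen.getD g 0 / 2048) (uGen.getD g 0 % 2048)

/-- An element of the subgroup. -/
def ueAt (i : ℕ) : ℕ := getT ueTab 96 i

/-- One of the 63 positions. -/
def labAt (i : ℕ) : ℕ := uLab.getD i 0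

/-- The check of one element. -/
def ueOK (i : ℕ) : Bool :=
  if i = 0 then ueAt i == idCode
  else decide (getT ueparTab 96 i / 2 < i) && ueAt i == mmul (uA (getT ueparTab 96 i % 2)) (ueAt (getT ueparTab 96 i / 2))

/-- The check of one left product. -/
def uactOK (g i : ℕ) : Bool :=
  decide (getT uactTab 96 (6048 * g + i) < 6048) && mmul (uA g) (ueAt i) == ueAt (getT uactTab 96 (6048 * g + i))

/-- The checks of one suborbit. -/
def orbOK (L start : ℕ) (rep par act : List ℕ) (cj : List (List ℕ)) (msk : List ℕ) : Bool :=
  (rep.getD 0 0 == el (start / 2048) (start % 2048)) &&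
  ((List.range L).all fun i => decide (i = 0) ||
    (decide (par.getD i 0 / 2 < i) && rep.getD i 0 == mmul (uA (par.getD i 0 % 2)) (rep.getD (par.getD i 0 / 2) 0))) &&
  ((List.range 2).all fun g => (List.range L).all fun i =>
    decide (act.getD (L * g + i) 0 / 8192 < L) && decide (act.getD (L * g + i) 0 % 8192 < 6048) &&
      mmul (uA g) (rep.getD i 0) ==
        mmul (rep.getD (act.getD (L * g + i) 0 / 8192) 0) (ueAt (act.getD (L * g + i) 0 % 8192))) &&
  ((List.range L).all fun i => (List.range 63).all fun s =>
    decide (getT cj 63 (63 * i + s) < 315) &&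
      mmul (rep.getD i 0) (tc (labAt s)) == mmul (tc (getT cj 63 (63 * i + s))) (rep.getD i 0) &&
      Nat.testBit (msk.getD i 0) (getT cj 63 (63 * i + s))) &&
  ((List.range L).all fun i => (List.range i).all fun j =>
    (List.range 63).any fun s => !(Nat.testBit (msk.getD j 0) (getT cj 63 (63 * i + s))))

theorem uGen_lt : ∀ g < 2, uGen.getD g 0 / 2048 < 315 ∧ uGen.getD g 0 % 2048 < 1920 := by decide +kernel

theorem uLab_lt : ((List.range 63).all fun i => decide (labAt i < 315) &&
    (List.range i).all fun j => !(labAt j == labAt i)) = true := by decide +kernel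

theorem uconj : ((List.finRange 2).all fun g => (List.finRange 63).all fun i =>
    mmul (uA g.val) (tc (labAt i.val)) == mmul (tc (labAt (pU g i).val)) (uA g.val)) = true := by decide +kernel

theorem ueOK_all : (List.range 6048).all ueOK = true := by decide +kernel

theorem uactOK_all : ((List.range 2).all fun g => (List.range 6048).all (uactOK g)) = true := by decide +kernel

theorem saOK : orbOK 36 saStart saRep saPar saAct sacjTab saMask = true := by decide +kernel

theorem sbOK : orbOK 63 sbStart sbRep sbPar sbAct sbcjTab sbMask = true := by decide +kernel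

theorem starts_lt : (saStart / 2048 < 315 ∧ saStart % 2048 < 1920) ∧ sbStart / 2048 < 315 ∧ sbStart % 2048 < 1920 := by
  decide +kernel

end Cfsg.Agent.FGS2.J2
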