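import Cfsg.Agent.FGS4.SchurSylow.Lifts
import Mathlib.Algebra.BigOperators.Fin
import Mathlib.Data.Nat.Bitwise

/-!
Central extensions of a 2-group given by seven involutions and the conjugates of earlier generators by later ones:
a collector records which unknown central factors occur, and a certificate shows that all of them can be removed.
-/

set_option autoImplicit false

namespace Cfsg.Agent.FGS2.J2.Collect

open Subgroup

universe u v w

/-- The tabulated word for two generators. -/
def word (tab : List (List ℕ)) (a b : ℕ) : List ℕ := tab.getD (7 * a + b) []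

/-- One rewriting step. -/
def step (tab : List (List ℕ)) : List ℕ → Option (List ℕ × ℕ)
  | a :: b :: rest =>
    if a = b then some (rest, 0)
    else if b < a then some (b :: (word tab a b ++ rest), 2 ^ (7 * a + b))
    else (step tab (b :: rest)).map fun r => (a :: r.1, r.2)
  | _ => none

/-- Rewriting with a record of the factors. -/
def col (tab : List (List ℕ)) : ℕ → List ℕ → List ℕ × ℕ
  | 0, w => (w, 0)
  | f + 1, w =>
    match step tab w with
    | none => (w, 0)
    | some r => ((col tab f r.1).1, r.2 ^^^ (col tab f r.1).2)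

/-- The rewriting with enough steps. -/
def nf (tab : List (List ℕ)) (w : List ℕ) : List ℕ × ℕ := col tab 400 w

/-- All letters are below seven. -/
def small (w : List ℕ) : Bool := w.all fun a => decide (a < 7)

/-- The table has small letters, above the second index. -/
def tabOK (tab : List (List ℕ)) : Bool :=
  (List.range 7).all fun a => (List.range 7).all fun b => (word tab a b).all fun c => decide (c < 7) && decide (b < c)

section

variable {Γ : Type u} [Group Γ] {K : Type v} [CommGroup K]

/-- The value of a word. -/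
def ev (A : ℕ → Γ) (w : List ℕ) : Γ := (w.map A).prod

theorem ev_append (A : ℕ → Γ) (x y : List ℕ) : ev A (x ++ y) = ev A x * ev A y := by
  rw [ev, List.map_append, List.prod_append, ev, ev]

theorem ev_cons (A : ℕ → Γ) (a : ℕ) (y : List ℕ) : ev A (a :: y) = A a * ev A y := by
  rw [ev, List.map_cons, List.prod_cons, ev]

theorem ev_nil (A : ℕ → Γ) : ev A [] = 1 := rfl

theorem ev_single (A : ℕ → Γ) (a : ℕ) : ev A [a] = A a := by rw [ev_cons, ev_nil, mul_one]

/-- The factor recorded by a mask. -/
def wm (W : ℕ → K) (m : ℕ) : K := ∏ i ∈ Finset.range 49, if m.testBit i then W i else 1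

theorem wm_zero (W : ℕ → K) : wm W 0 = 1 :=
  Finset.prod_eq_one fun i _ => by simp

theorem wm_xor (W : ℕ → K) (hK : ∀ k : K, k * k = 1) (a b : ℕ) : wm W (a ^^^ b) = wm W a * wm W b := by
  rw [wm, wm, wm, ← Finset.prod_mul_distrib]
  refine Finset.prod_congr rfl fun i _ => ?_
  rw [Nat.testBit_xor]
  cases a.testBit i <;> cases b.testBit i <;> simp [hK]

theorem wm_pow (W : ℕ → K) {p : ℕ} (hp : p < 49) : wm W (2 ^ p) = W p := by
  rw [wm, Finset.prod_eq_single p]
  · rw [if_pos (Nat.testBit_two_pow_self)]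
  · intro i _ hi
    rw [if_neg (by rw [Nat.testBit_two_pow]; simpa using Ne.symm hi)]
  · intro h
    exact absurd (Finset.mem_range.2 hp) h

/-- The hypotheses on lifts of the generators. -/
structure Lifts (tab : List (List ℕ)) (ι : K →* Γ) (A : ℕ → Γ) (W : ℕ → K) : Prop where
  central : ∀ (k : K) (y : Γ), y * ι k = ι k * y
  two : ∀ k : K, k * k = 1
  sq : ∀ a < 7, A a * A a = 1
  rel : ∀ a b : ℕ, b < a → a < 7 → A a * A b = ι (W (7 * a + b)) * (A b * ev A (word tab a b))

variable {tab : List (List ℕ)} {ι : K →* Γ} {A : ℕ → Γ} {W : ℕ → K}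

theorem step_sound (L : Lifts tab ι A W) (ht : tabOK tab = true) :
    ∀ w : List ℕ, small w = true → ∀ r, step tab w = some r →
      small r.1 = true ∧ ev A w = ι (wm W r.2) * ev A r.1
  | [], _, r, h => by simp [step] at h
  | [a], _, r, h => by simp [step] at h
  | a :: b :: rest, hw, r, h => by
    simp only [small, List.all_cons, Bool.and_eq_true, decide_eq_true_eq] at hw
    unfold step at h
    split_ifs at h with h1 h2
    · obtain rfl := Option.some.inj h
      subst h1
      refine ⟨hw.2.2, ?_⟩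
      rw [wm_zero, map_one, one_mul, ev_cons, ev_cons, ← mul_assoc, L.sq a hw.1, one_mul]
    · obtain rfl := Option.some.inj h
      refine ⟨?_, ?_⟩
      · have := List.all_eq_true.1 (List.all_eq_true.1 ht a (List.mem_range.2 hw.1)) b (List.mem_range.2 hw.2.1)
        simp only [List.all_eq_true, Bool.and_eq_true, decide_eq_true_eq] at this
        simp only [small, List.all_cons, List.all_append, Bool.and_eq_true, decide_eq_true_eq]
        exact ⟨hw.2.1, List.all_eq_true.2 fun c hc => decide_eq_true (this c hc).1, hw.2.2⟩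
      · rw [wm_pow W (by omega), ev_cons, ev_cons, ← mul_assoc, L.rel a b h2 hw.1, ev_cons, ev_append]
        simp only [mul_assoc]
    · obtain ⟨r', hr', rfl⟩ := Option.map_eq_some_iff.1 h
      obtain ⟨hs, he⟩ := step_sound L ht (b :: rest)
        (by simp only [small, List.all_cons, Bool.and_eq_true, decide_eq_true_eq]; exact hw.2) r' hr'
      refine ⟨by simp only [small, List.all_cons, Bool.and_eq_true, decide_eq_true_eq]; exact ⟨hw.1, hs⟩, ?_⟩
      rw [ev_cons, he, ← mul_assoc, L.central, mul_assoc, ev_cons]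

theorem col_sound (L : Lifts tab ι A W) (ht : tabOK tab = true) : ∀ (f : ℕ) (w : List ℕ), small w = true →
    ev A w = ι (wm W (col tab f w).2) * ev A (col tab f w).1
  | 0, w, _ => by rw [col, wm_zero, map_one, one_mul]
  | f + 1, w, hw => by
    rw [col]
    split
    · rw [wm_zero, map_one, one_mul]
    · next r hr =>
      obtain ⟨hs, he⟩ := step_sound L ht w hw r hr
      rw [he, col_sound L ht f r.1 hs, wm_xor W L.two, map_mul, mul_assoc]

theorem nf_sound (L : Lifts tab ι A W) (ht : tabOK tab = true) (w : List ℕ) (hw : small w = true) :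
    ev A w = ι (wm W (nf tab w).2) * ev A (nf tab w).1 :=
  col_sound L ht 400 w hw

/-- A consistency triple. -/
def ovMask (tab : List (List ℕ)) (t : List ℕ × List ℕ × List ℕ) : ℕ :=
  (nf tab t.2.1).2 ^^^ (nf tab (t.1 ++ (nf tab t.2.1).1 ++ t.2.2)).2 ^^^ (nf tab (t.1 ++ t.2.1 ++ t.2.2)).2

/-- The check of a consistency triple. -/
def ovOK (tab : List (List ℕ)) (t : List ℕ × List ℕ × List ℕ) : Bool :=
  small t.1 && small t.2.1 && small t.2.2 && small (nf tab t.2.1).1 &&
    (nf tab (t.1 ++ (nf tab t.2.1).1 ++ t.2.2)).1 == (nf tab (t.1 ++ t.2.1 ++ t.2.2)).1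

theorem small_append {x y : List ℕ} (hx : small x = true) (hy : small y = true) : small (x ++ y) = true := by
  rw [small, List.all_append, Bool.and_eq_true]; exact ⟨hx, hy⟩

theorem ov_sound (L : Lifts tab ι A W) (hι : Function.Injective ι) (ht : tabOK tab = true)
    {t : List ℕ × List ℕ × List ℕ} (h : ovOK tab t = true) : wm W (ovMask tab t) = 1 := by
  simp only [ovOK, Bool.and_eq_true, beq_iff_eq] at h
  obtain ⟨⟨⟨⟨h1, h2⟩, h3⟩, h4⟩, h5⟩ := h
  have e1 := nf_sound L ht _ (small_append (small_append h1 h4) h3)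
  have e2 := nf_sound L ht _ (small_append (small_append h1 h2) h3)
  rw [h5] at e1
  rw [ev_append, ev_append] at e1 e2
  rw [nf_sound L ht _ h2, ← mul_assoc (ev A t.1), L.central, mul_assoc (ι _), mul_assoc (ι _), e1,
    ← mul_assoc, ← map_mul] at e2
  have := hι (mul_right_cancel e2)
  rw [ovMask, wm_xor W L.two, wm_xor W L.two, this]
  exact L.two _

/-- The mask of a commuting pair. -/
def pairMask (tab : List (List ℕ)) (x y : List ℕ) : ℕ := (nf tab (x ++ y)).2 ^^^ (nf tab (y ++ x)).2

/-- The check of a commuting pair. -/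
def pairOK (tab : List (List ℕ)) (x y : List ℕ) : Bool :=
  small x && small y && (nf tab (x ++ y)).1 == (nf tab (y ++ x)).1

theorem pair_sound (L : Lifts tab ι A W) (ht : tabOK tab = true) {x y : List ℕ} (h : pairOK tab x y = true) :
    ev A x * ev A y = ι (wm W (pairMask tab x y)) * (ev A y * ev A x) := by
  simp only [pairOK, Bool.and_eq_true, beq_iff_eq] at h
  rw [← ev_append, ← ev_append, nf_sound L ht _ (small_append h.1.1 h.1.2),
    nf_sound L ht _ (small_append h.1.2 h.1.1), h.2, ← mul_assoc, ← map_mul, pairMask, wm_xor W L.two,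
    mul_assoc, L.two, mul_one]

/-- The check of a square. -/
def sqOK' (tab : List (List ℕ)) (w : List ℕ) : Bool := small w && (nf tab (w ++ w)).1 == []

theorem sq_sound (L : Lifts tab ι A W) (ht : tabOK tab = true) {w : List ℕ} (h : sqOK' tab w = true) :
    ev A w * ev A w = ι (wm W (nf tab (w ++ w)).2) := by
  simp only [sqOK', Bool.and_eq_true, beq_iff_eq] at h
  rw [← ev_append, nf_sound L ht _ (small_append h.1 h.1), h.2, ev_nil, mul_one]

end

/-- A certificate that all factors can be removed. -/
structure Cert where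
  tab : List (List ℕ)
  sqs : List (List ℕ)
  fus : List (List ℕ × List ℕ × List ℕ × List ℕ)
  ovs : List (List ℕ × List ℕ × List ℕ)
  shift : List ℕ
  sel : List ℕ

/-- The masks known to give the trivial factor. -/
def Cert.eqs (C : Cert) : List ℕ :=
  C.sqs.map (fun w => (nf C.tab (w ++ w)).2) ++
    C.fus.map (fun q => pairMask C.tab q.1 q.2.1 ^^^ pairMask C.tab q.2.2.1 q.2.2.2) ++
    C.ovs.map (ovMask C.tab)

/-- The mask to be removed for one pair. -/
def Cert.target (C : Cert) (a b : ℕ) : ℕ :=
  2 ^ (7 * a + b) ^^^ C.shift.getD a 0 ^^^ (word C.tab a b).foldr (fun c s => C.shift.getD c 0 ^^^ s) 0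

/-- The combination selected for one pair. -/
def Cert.comb (C : Cert) (a b : ℕ) : ℕ :=
  (List.range C.eqs.length).foldr
    (fun k s => (if (C.sel.getD (7 * a + b) 0).testBit k then C.eqs.getD k 0 else 0) ^^^ s) 0

/-- The check of a certificate. -/
def Cert.ok (C : Cert) : Bool :=
  tabOK C.tab && C.sqs.all (sqOK' C.tab) &&
    C.fus.all (fun q => pairOK C.tab q.1 q.2.1 && pairOK C.tab q.2.2.1 q.2.2.2) && C.ovs.all (ovOK C.tab) &&
    (List.range 7).all (fun a => C.sqs.contains [a]) &&
    (List.range 7).all fun a => (List.range 7).all fun b => !(decide (b < a)) || C.comb a b == C.target a b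

/-- The set of generators from a given index on. -/
def tail {G : Type w} (B : ℕ → G) (l : ℕ) : Set G := {x | ∃ j, l ≤ j ∧ j < 7 ∧ x = B j}

theorem no_kernel {Γ : Type u} [Group Γ] [Finite Γ] {Q : Type v} [Group Q] {σ : Γ →* Q}
    (hσ : Cfsg.IsStemExtension σ) (hker : ∀ z ∈ σ.ker, z * z = 1) (C : Cert) (hC : C.ok = true)
    (e : ℕ → Q) (hrel : ∀ a b : ℕ, b < a → a < 7 → e a * e b = e b * ev e (word C.tab a b))
    (hinv : ∀ w ∈ C.sqs, ∀ X : Γ, σ X = ev e w → X * X = 1)
    (hfus : ∀ q ∈ C.fus, ∃ g : Q, g * ev e q.1 = ev e q.2.2.1 * g ∧ g * ev e q.2.1 = ev e q.2.2.2 * g)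
    (S : Sylow 2 Q) (hS : (S : Subgroup Q) = closure (tail e 0)) (hcard : Nat.card (S : Subgroup Q) = 128)
    {z : Γ} (hz : z ∈ σ.ker) (hzo : orderOf z = 2) : False := by
  simp only [Cert.ok, Bool.and_eq_true] at hC
  obtain ⟨⟨⟨⟨⟨ht, hsqs⟩, hf⟩, hov⟩, hsingle⟩, hsel⟩ := hC
  have hc : ∀ w ∈ σ.ker, ∀ y : Γ, y * w = w * y := fun w hw => mem_center_iff.1 (hσ.2.1 hw)
  letI : CommGroup σ.ker :=
    { (inferInstance : Group σ.ker) with mul_comm := fun x y => Subtype.ext (hc _ y.2 x) }
  choose A hA using fun i => hσ.1 (e i)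
  have hev : ∀ w, σ (ev A w) = ev e w := by
    intro w
    rw [ev, map_list_prod, List.map_map, ev]
    exact congrArg List.prod (List.map_congr_left fun a _ => hA a)
  have hsq : ∀ a < 7, A a * A a = 1 := fun a ha => by
    have h1 := List.all_eq_true.1 hsingle a (List.mem_range.2 ha)
    exact hinv [a] (List.contains_iff_mem.1 h1) _ (by rw [ev_single, hA])
  let ι : σ.ker →* Γ := σ.ker.subtype
  have hW : ∀ i : ℕ, ∃ k : σ.ker, (i % 7 < i / 7 ∧ i / 7 < 7) →
      A (i / 7) * A (i % 7) = ι k * (A (i % 7) * ev A (word C.tab (i / 7) (i % 7))) := by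
    intro i
    by_cases hi : i % 7 < i / 7 ∧ i / 7 < 7
    · refine ⟨⟨A (i / 7) * A (i % 7) * (A (i % 7) * ev A (word C.tab (i / 7) (i % 7)))⁻¹, ?_⟩, fun _ => ?_⟩
      · rw [MonoidHom.mem_ker, map_mul, map_inv, map_mul, map_mul, hev, hA, hA, hrel _ _ hi.1 hi.2, mul_inv_cancel]
      · exact (inv_mul_cancel_right _ _).symm
    · exact ⟨1, fun h => absurd h hi⟩
  choose W hW using hW
  have L : Lifts C.tab ι A W :=
    { central := fun k y => hc _ k.2 y
      two := fun k => Subtype.ext (hker _ k.2)
      sq := hsq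
      rel := fun a b hb ha => by
        have h := hW (7 * a + b)
        rw [show (7 * a + b) / 7 = a by omega, show (7 * a + b) % 7 = b by omega] at h
        exact h ⟨hb, ha⟩ }
  have hι : Function.Injective ι := Subtype.val_injective
  have one : ∀ m ∈ C.eqs, wm W m = 1 := by
    intro m hm
    simp only [Cert.eqs, List.mem_append, List.mem_map] at hm
    rcases hm with (⟨w, hw, rfl⟩ | ⟨q, hq, rfl⟩) | ⟨t, htm, rfl⟩
    · apply hι
      rw [map_one, ← sq_sound L ht (List.all_eq_true.1 hsqs w hw)]
      exact hinv w hw _ (hev w)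
    · have hq' := List.all_eq_true.1 hf q hq
      rw [Bool.and_eq_true] at hq'
      have p1 := pair_sound L ht hq'.1
      have p2 := pair_sound L ht hq'.2
      obtain ⟨g, g1, g2⟩ := hfus q hq
      obtain ⟨G, rfl⟩ := hσ.1 g
      obtain ⟨k1, hk1, c1⟩ : ∃ k ∈ σ.ker, G * ev A q.1 * G⁻¹ = k * ev A q.2.2.1 :=
        ⟨G * ev A q.1 * G⁻¹ * (ev A q.2.2.1)⁻¹, by
          rw [MonoidHom.mem_ker, map_mul, map_mul, map_mul, map_inv, map_inv, hev, hev, g1,
            mul_inv_cancel_right, mul_inv_cancel], (inv_mul_cancel_right _ _).symm⟩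
      obtain ⟨k2, hk2, c2⟩ : ∃ k ∈ σ.ker, G * ev A q.2.1 * G⁻¹ = k * ev A q.2.2.2 :=
        ⟨G * ev A q.2.1 * G⁻¹ * (ev A q.2.2.2)⁻¹, by
          rw [MonoidHom.mem_ker, map_mul, map_mul, map_mul, map_inv, map_inv, hev, hev, g2,
            mul_inv_cancel_right, mul_inv_cancel], (inv_mul_cancel_right _ _).symm⟩
      set a := ι (wm W (pairMask C.tab q.1 q.2.1))
      set b := ι (wm W (pairMask C.tab q.2.2.1 q.2.2.2))
      set X := ev A q.1
      set Y := ev A q.2.1
      set X' := ev A q.2.2.1
      set Y' := ev A q.2.2.2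
      have ha : ∀ y : Γ, y * a = a * y := fun y => L.central _ y
      have l1 : G * (X * Y) * G⁻¹ = k1 * k2 * (b * (Y' * X')) := by
        calc G * (X * Y) * G⁻¹ = (G * X * G⁻¹) * (G * Y * G⁻¹) := by group
          _ = k1 * (X' * k2) * Y' := by rw [c1, c2]; simp only [mul_assoc]
          _ = k1 * k2 * (X' * Y') := by rw [hc _ hk2 X']; simp only [mul_assoc]
          _ = _ := by rw [p2]
      have l2 : G * (X * Y) * G⁻¹ = k1 * k2 * (a * (Y' * X')) := by
        calc G * (X * Y) * G⁻¹ = (G * a) * (Y * X) * G⁻¹ := by rw [p1]; simp only [mul_assoc]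
          _ = a * ((G * Y * G⁻¹) * (G * X * G⁻¹)) := by rw [ha G]; group
          _ = a * (k2 * (Y' * k1) * X') := by rw [c1, c2]; simp only [mul_assoc]
          _ = a * (k2 * k1 * (Y' * X')) := by rw [hc _ hk1 Y']; simp only [mul_assoc]
          _ = k1 * k2 * (a * (Y' * X')) := by
            rw [← mul_assoc, ← ha, show k2 * k1 = k1 * k2 from hc _ hk1 k2, mul_assoc]
      rw [wm_xor W L.two]
      have := hι (mul_right_cancel (mul_left_cancel (l1.symm.trans l2)))
      rw [this]
      exact L.two _
    · exact ov_sound L hι ht (List.all_eq_true.1 hov t htm)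
  have hcomb : ∀ a b, b < a → a < 7 → wm W (C.target a b) = 1 := by
    intro a b hb ha
    have h := List.all_eq_true.1 (List.all_eq_true.1 hsel a (List.mem_range.2 ha)) b
      (List.mem_range.2 (hb.trans ha))
    simp only [decide_eq_true hb, Bool.not_true, Bool.false_or, beq_iff_eq] at h
    rw [← h, Cert.comb]
    have hlt : ∀ k ∈ List.range C.eqs.length, k < C.eqs.length := fun k hk => List.mem_range.1 hk
    generalize List.range C.eqs.length = l at hlt ⊢
    induction l with
    | nil => exact wm_zero W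
    | cons k l ih =>
      rw [List.foldr_cons, wm_xor W L.two, ih fun x hx => hlt x (List.mem_cons_of_mem _ hx), mul_one]
      split_ifs
      · rw [List.getD_eq_getElem _ _ (hlt k List.mem_cons_self)]; exact one _ (List.getElem_mem _)
      · exact wm_zero W
  -- corrected lifts
  set B : ℕ → Γ := fun l => ι (wm W (C.shift.getD l 0)) * A l with hB
  have hBev : ∀ w : List ℕ,
      ev B w = ι (wm W (w.foldr (fun c s => C.shift.getD c 0 ^^^ s) 0)) * ev A w := by
    intro w
    induction w with
    | nil => rw [ev_nil, ev_nil, List.foldr_nil, wm_zero, map_one, mul_one]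
    | cons c w ih =>
      rw [ev_cons, ev_cons, List.foldr_cons, ih, wm_xor W L.two, map_mul]
      show ι _ * A c * (ι _ * ev A w) = _
      rw [mul_assoc, ← mul_assoc (A c), L.central, ← mul_assoc, ← mul_assoc, ← mul_assoc]
  have hBsq : ∀ a < 7, B a * B a = 1 := by
    intro a ha
    show ι _ * A a * (ι _ * A a) = 1
    rw [mul_assoc, ← mul_assoc (A a), L.central, mul_assoc, hsq a ha, mul_one, ← map_mul, L.two, map_one]
  have hBrel : ∀ a b, b < a → a < 7 → B a * B b = B b * ev B (word C.tab a b) := by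
    intro a b hb ha
    rw [hBev]
    show ι _ * A a * (ι _ * A b) = ι _ * A b * (ι _ * ev A _)
    set za := wm W (C.shift.getD a 0)
    set zb := wm W (C.shift.getD b 0)
    set zw := wm W ((word C.tab a b).foldr (fun c s => C.shift.getD c 0 ^^^ s) 0)
    have h := hcomb a b hb ha
    rw [Cert.target, wm_xor W L.two, wm_xor W L.two, wm_pow W (by omega)] at h
    calc ι za * A a * (ι zb * A b) = ι za * ι zb * (A a * A b) := by
          rw [mul_assoc, ← mul_assoc (A a), L.central]; simp only [mul_assoc]
      _ = ι (za * zb * W (7 * a + b)) * (A b * ev A (word C.tab a b)) := by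
          rw [L.rel a b hb ha, map_mul, map_mul]; simp only [mul_assoc]
      _ = ι (zb * zw) * (A b * ev A (word C.tab a b)) := by
          congr 2
          calc za * zb * W (7 * a + b) = za * zb * W (7 * a + b) * (zw * zw) := by rw [L.two, mul_one]
            _ = zb * zw * (W (7 * a + b) * za * zw) := by ac_rfl
            _ = _ := by rw [h, mul_one]
      _ = _ := by
          rw [map_mul, mul_assoc, mul_assoc, ← mul_assoc (A b), L.central, mul_assoc]
  have hsub : ∀ l, l < 7 → tail B l = insert (B l) (tail B (l + 1)) := by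
    intro l hl
    ext x
    simp only [tail, Set.mem_insert_iff, Set.mem_ofPred_eq]
    constructor
    · rintro ⟨j, hj, hj7, rfl⟩
      rcases eq_or_lt_of_le hj with rfl | h
      · exact Or.inl rfl
      · exact Or.inr ⟨j, h, hj7, rfl⟩
    · rintro (rfl | ⟨j, hj, hj7, rfl⟩)
      · exact ⟨l, le_rfl, hl, rfl⟩
      · exact ⟨j, by omega, hj7, rfl⟩
  have hle : ∀ k, k ≤ 7 → Nat.card (closure (tail B (7 - k))) ≤ 2 ^ k := by
    intro k
    induction k with
    | zero =>
      intro _
      have : tail B (7 - 0) = (∅ : Set Γ) := Set.eq_empty_iff_forall_notMem.2 fun x ⟨j, a, b, _⟩ => by omega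
      rw [this, Subgroup.closure_empty, Subgroup.card_bot, pow_zero]
    | succ k ih =>
      intro hk
      rw [hsub (7 - (k + 1)) (by omega), show 7 - (k + 1) + 1 = 7 - k by omega, pow_succ']
      refine le_trans (FGS4.SchurSylow.card_closure_insert_le (hBsq _ (by omega)) ?_)
        (Nat.mul_le_mul_left 2 (ih (by omega)))
      rintro x ⟨j, hj, hj7, rfl⟩
      rw [mul_assoc, hBrel j (7 - (k + 1)) (by omega) hj7, ← mul_assoc, hBsq _ (by omega), one_mul]
      refine list_prod_mem fun y hy => ?_
      obtain ⟨c, hcm, rfl⟩ := List.mem_map.1 hy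
      have := List.all_eq_true.1 (List.all_eq_true.1 ht j (List.mem_range.2 hj7)) (7 - (k + 1))
        (List.mem_range.2 (by omega))
      simp only [List.all_eq_true, Bool.and_eq_true, decide_eq_true_eq] at this
      exact subset_closure ⟨c, by have := (this c hcm).2; omega, (this c hcm).1, rfl⟩
  set T := closure (tail B 0) with hT
  have hT128 : Nat.card T ≤ 128 := by
    have := hle 7 le_rfl
    simpa [hT] using this
  have himg : T.map σ = (S : Subgroup Q) := by
    rw [hS, hT, MonoidHom.map_closure]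
    congr 1
    ext x
    simp only [tail, Set.mem_image, Set.mem_ofPred_eq]
    constructor
    · rintro ⟨_, ⟨j, h0, hj, rfl⟩, rfl⟩
      exact ⟨j, h0, hj, by rw [hB, map_mul, show σ (ι (wm W (C.shift.getD j 0))) = 1 from MonoidHom.mem_ker.1 (wm W (C.shift.getD j 0)).2, one_mul, hA]⟩
    · rintro ⟨j, h0, hj, rfl⟩
      exact ⟨B j, ⟨j, h0, hj, rfl⟩, by rw [hB, map_mul, show σ (ι (wm W (C.shift.getD j 0))) = 1 from MonoidHom.mem_ker.1 (wm W (C.shift.getD j 0)).2, one_mul, hA]⟩
  have hbot : ∀ x ∈ T, x ∈ σ.ker → x = 1 := by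
    intro x hx hxk
    let f : T →* Q := σ.comp T.subtype
    have hr : f.range = T.map σ := by rw [MonoidHom.range_comp, range_subtype]
    have h1 := f.ker.card_mul_index
    rw [Subgroup.index_ker, hr, himg, hcard] at h1
    have hk : Nat.card f.ker = 1 := by
      have : 0 < Nat.card f.ker := Nat.card_pos
      by_contra hne
      have : 2 * 128 ≤ Nat.card f.ker * 128 := Nat.mul_le_mul_right _ (by omega)
      omega
    have hmem : (⟨x, hx⟩ : T) ∈ f.ker := hxk
    rw [Subgroup.card_eq_one.1 hk, mem_bot] at hmem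
    exact congrArg Subtype.val hmem
  haveI : Fact (Nat.Prime 2) := ⟨Nat.prime_two⟩
  refine FGS4.SchurSylow.stem_false hσ S hz hzo fun t htk htm => ?_
  have hle' : (S : Subgroup Q).comap σ ≤ T ⊔ σ.ker := by rw [← himg, Subgroup.comap_map_eq]
  have h1 := FGS4.SchurSylow.commutator_sup_center_le (K := T) hσ.2.1 (commutator_mono hle' hle' htm)
  exact hbot t (Subgroup.commutator_le_self T h1) htk

end Cfsg.Agent.FGS2.J2.Collect
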