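import Cfsg.Agent.FGS2.J2.Elements
import Cfsg.Agent.FGS2.J2.SpecDefs
import Cfsg.Agent.FGS2.J2.FusionData
import Cfsg.Agent.FGS2.J2.SchurData
import Cfsg.Agent.FGS2.J2.SchurCollect

/-! Checks for the Schur multiplier of the Hall–Janko group. -/

set_option autoImplicit false
set_option maxRecDepth 100000

namespace Cfsg.Agent.FGS2.J2

/-- The certificate for the two-part. -/
def schCert : Collect.Cert := ⟨schConjTab, schSqs, schFus, schOvs, schShift, schSel⟩

/-- The code of a generator. -/
def sgc (a : ℕ) : ℕ := hAt (schGen.getD a 0)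

/-- The code of a word in the seven involutions. -/
def sgw (w : List ℕ) : ℕ := w.foldr (fun a s => mmul (sgc a) s) idCode

/-- The code of an element given by a pair. -/
def pcd (p : ℕ × ℕ) : ℕ := el p.1 p.2

/-- The class test. -/
def clOK (x : ℕ) (c : ℕ × ℕ × ℕ) : Bool :=
  if c.1 = 0 then decide (c.2.1 < 315) && x == tc c.2.1
  else decide (c.2.1 < 315) && decide (c.2.2 < 1920) &&
    mmul (el c.2.1 c.2.2) (hAt schB) == mmul x (el c.2.1 c.2.2)

/-- The class test for an element known to be outside the reflection class. -/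
def bOK (x : ℕ) (c : ℕ × ℕ × ℕ) : Bool :=
  decide (c.2.1 < 315) && decide (c.2.2 < 1920) && mmul (el c.2.1 c.2.2) (hAt schB) == mmul x (el c.2.1 c.2.2)

/-- A code of a witness for eight. -/
def e8c (i : ℕ) : ℕ := pcd (schEight.getD i (0, 0))

theorem schCert_ok : schCert.ok = true := by decide +kernel

theorem schGen_lt : ∀ a, schGen.getD a 0 < 1920 := by
  intro a
  by_cases h : a < 7
  · revert h; revert a; decide +kernel
  · rw [List.getD_eq_default _ _ (by simp [schGen]; omega)]; norm_num

theorem schRel_ok : ((List.range 7).all fun a => (List.range 7).all fun b => !(decide (b < a)) ||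
    mmul (sgc a) (sgc b) == mmul (sgc b) (sgw (Collect.word schConjTab a b))) = true := by decide +kernel

theorem schClass_ok : schSqs.length = schClass.length ∧
    ((List.range schSqs.length).all fun i => clOK (sgw (schSqs.getD i [])) (schClass.getD i (0, 0, 0))) = true := by
  decide +kernel

theorem schB_ok : schB < 1920 ∧ mmul (hAt schB) (hAt schB) = idCode := by decide +kernel

theorem schEight_ok : schEight.all (fun p => decide (p.1 < 315) && decide (p.2 < 1920)) = true ∧
    bOK (e8c 0) (schEightWit.getD 0 (0, 0, 0)) = true ∧ bOK (e8c 1) (schEightWit.getD 1 (0, 0, 0)) = true ∧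
    bOK (e8c 2) (schEightWit.getD 2 (0, 0, 0)) = true ∧
    bOK (mmul (e8c 0) (e8c 1)) (schEightWit.getD 3 (0, 0, 0)) = true ∧
    bOK (mmul (e8c 0) (e8c 2)) (schEightWit.getD 4 (0, 0, 0)) = true ∧
    bOK (mmul (e8c 1) (e8c 2)) (schEightWit.getD 5 (0, 0, 0)) = true ∧
    mmul (e8c 0) (mmul (e8c 1) (e8c 2)) = tc 0 := by decide +kernel

theorem schFour_ok : bOK (e8c 0) (schFourWit.getD 0 (0, 0, 0)) = true ∧
    bOK (e8c 1) (schFourWit.getD 1 (0, 0, 0)) = true ∧
    bOK (mmul (e8c 0) (e8c 1)) (schFourWit.getD 2 (0, 0, 0)) = true := by decide +kernel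

theorem schFus_ok : schFus.length = schFusBy.length ∧
    ((List.range schFus.length).all fun i =>
      decide (schFusBy.getD i 0 < 1920) &&
      mmul (hAt (schFusBy.getD i 0)) (sgw (schFus.getD i ([], [], [], [])).1) ==
        mmul (sgw (schFus.getD i ([], [], [], [])).2.2.1) (hAt (schFusBy.getD i 0)) &&
      mmul (hAt (schFusBy.getD i 0)) (sgw (schFus.getD i ([], [], [], [])).2.1) ==
        mmul (sgw (schFus.getD i ([], [], [], [])).2.2.2) (hAt (schFusBy.getD i 0))) = true := by decide +kernel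

theorem schGen_mem : ((List.range 7).all fun a => decide (schGen.getD a 0 ∈ pList)) = true := by decide +kernel

theorem schPgen_ok : pGen.length = schPgen.length ∧
    ((List.range pGen.length).all fun i =>
      (schPgen.getD i []).all (fun a => decide (a < 7)) && sgw (schPgen.getD i []) == hAt (pGen.getD i 0)) = true := by
  decide +kernel

/-- The commutator code of two elements of order three. -/
def comm3 (u v : ℕ) : ℕ := mmul (mmul u v) (mmul (mmul u u) (mmul v v))

theorem schThree_ok : schThree.all (fun p => decide (p.1 < 315) && decide (p.2 < 1920)) = true ∧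
    pw (pcd (schThree.getD 0 (0, 0))) 3 = idCode ∧ pw (pcd (schThree.getD 1 (0, 0))) 3 = idCode ∧
    comm3 (pcd (schThree.getD 0 (0, 0))) (pcd (schThree.getD 1 (0, 0))) ≠ idCode ∧
    pw (comm3 (pcd (schThree.getD 0 (0, 0))) (pcd (schThree.getD 1 (0, 0)))) 3 = idCode ∧
    (∀ i < 3, mmul (pcd (schThree.getD i (0, 0))) (comm3 (pcd (schThree.getD 0 (0, 0))) (pcd (schThree.getD 1 (0, 0)))) =
      mmul (comm3 (pcd (schThree.getD 0 (0, 0))) (pcd (schThree.getD 1 (0, 0)))) (pcd (schThree.getD i (0, 0)))) ∧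
    (∀ i < 2, mmul (pcd (schThree.getD 2 (0, 0))) (pcd (schThree.getD i (0, 0))) =
      mmul (mmul (pcd (schThree.getD i (0, 0))) (pcd (schThree.getD i (0, 0)))) (pcd (schThree.getD 2 (0, 0)))) := by
  decide +kernel

theorem schFive_ok : schFive.all (fun p => decide (p.1 < 315) && decide (p.2 < 1920)) = true ∧
    pw (pcd (schFive.getD 0 (0, 0))) 5 = idCode ∧ pw (pcd (schFive.getD 1 (0, 0))) 5 = idCode ∧
    pcd (schFive.getD 0 (0, 0)) ≠ idCode ∧
    (∀ i < 5, pcd (schFive.getD 1 (0, 0)) ≠ pw (pcd (schFive.getD 0 (0, 0))) i) ∧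
    mmul (pcd (schFive.getD 0 (0, 0))) (pcd (schFive.getD 1 (0, 0))) =
      mmul (pcd (schFive.getD 1 (0, 0))) (pcd (schFive.getD 0 (0, 0))) ∧
    mmul (pcd (schFive.getD 2 (0, 0))) (pcd (schFive.getD 0 (0, 0))) =
      mmul (pcd (schFive.getD 1 (0, 0))) (pcd (schFive.getD 2 (0, 0))) ∧
    mmul (pcd (schFive.getD 2 (0, 0))) (pcd (schFive.getD 1 (0, 0))) =
      mmul (pcd (schFive.getD 0 (0, 0))) (pcd (schFive.getD 2 (0, 0))) := by
  decide +kernel

/-- The exact matrix of a word in reflections. -/
def wordMat (w : List ℕ) : M3I :=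
  w.foldr (fun i D => mmI D (refC (lines.getD i (Ico.zero, Ico.zero, Ico.zero)))) oneM

theorem schXY_code : code (wordMat (schX ++ schY)) = code (wordMat (schY ++ schX)) := by decide +kernel

theorem schXY_ne : wordMat (schX ++ schY) ≠ wordMat (schY ++ schX) := by decide +kernel

theorem schXY_lt : (schX ++ schY).all (fun i => decide (i < lines.length)) = true := by decide +kernel

end Cfsg.Agent.FGS2.J2
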