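import Cfsg.Agent.FGS2.J2.CheckJ
import Cfsg.Agent.FGS2.J2.SchurTwoClass
import Cfsg.Agent.FGS2.J2.FusionTwo
import Cfsg.Prelude.Def_KGroupFacts

/-!
The Schur multiplier of the Hall–Janko group is cyclic of order two.
-/

set_option autoImplicit false
set_option maxRecDepth 100000

namespace Cfsg.Agent.FGS2.J2

open FGS4.SchurSylow
open scoped commutatorElement

/-- A generator of the Sylow subgroup. -/
noncomputable def sgEl (a : ℕ) : Spor.J2 := hEl (schGen.getD a 0)

theorem M_sgEl (a : ℕ) : M (sgEl a) = sgc a := M_hEl (schGen_lt a)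

theorem M_sgEv : ∀ w : List ℕ, M (Collect.ev sgEl w) = sgw w
  | [] => by rw [Collect.ev_nil, M_one, sgw, List.foldr_nil]
  | a :: w => by rw [Collect.ev_cons, M_mul, M_sgEl, M_sgEv w, sgw, sgw, List.foldr_cons]

/-- The element given by a pair. -/
noncomputable def pEl (p : ℕ × ℕ) : Spor.J2 := uEl p.1 * hEl p.2

theorem M_pEl {l : List (ℕ × ℕ)} (h : l.all (fun p => decide (p.1 < 315) && decide (p.2 < 1920)) = true) (i : ℕ) :
    M (pEl (l.getD i (0, 0))) = pcd (l.getD i (0, 0)) := by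
  have hp : (l.getD i (0, 0)).1 < 315 ∧ (l.getD i (0, 0)).2 < 1920 := by
    by_cases hi : i < l.length
    · rw [List.getD_eq_getElem _ _ hi]
      have := List.all_eq_true.1 h _ (List.getElem_mem hi)
      simpa using this
    · rw [List.getD_eq_default _ _ (not_lt.1 hi)]; norm_num
  rw [pEl, M_mul, M_uEl hp.1, M_hEl hp.2, pcd, el]

theorem b_sq : hEl schB * hEl schB = 1 :=
  M_inj (by rw [M_mul, M_hEl schB_ok.1, M_one, schB_ok.2])

theorem bOK_spec {g : Spor.J2} {x : ℕ} (e : M g = x) {c : ℕ × ℕ × ℕ} (h : bOK x c = true) :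
    ∃ k, k * hEl schB * k⁻¹ = g := by
  simp only [bOK, Bool.and_eq_true, decide_eq_true_eq, beq_iff_eq] at h
  obtain ⟨⟨h1, h2⟩, h3⟩ := h
  refine ⟨uEl c.2.1 * hEl c.2.2, mul_inv_eq_iff_eq_mul.2 (M_inj ?_)⟩
  rw [M_mul (uEl _ * hEl _), M_mul g, M_mul (uEl _), M_uEl h1, M_hEl h2, M_hEl schB_ok.1, e]
  exact h3

theorem tRef_sq0 : tRef 0 * tRef 0 = 1 :=
  M_inj (by rw [M_mul, M_tRef (by norm_num), M_one, tc_sq])

theorem class_cases (w : List ℕ) (hw : w ∈ schSqs) :
    (∃ k, k * tRef 0 * k⁻¹ = Collect.ev sgEl w) ∨ ∃ k, k * hEl schB * k⁻¹ = Collect.ev sgEl w := by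
  obtain ⟨i, hi, rfl⟩ := List.getElem_of_mem hw
  have h := List.all_eq_true.1 schClass_ok.2 i (List.mem_range.2 hi)
  rw [List.getD_eq_getElem _ _ hi] at h
  unfold clOK at h
  split_ifs at h
  · simp only [Bool.and_eq_true, decide_eq_true_eq, beq_iff_eq] at h
    refine Or.inl ⟨uEl (schClass.getD i (0, 0, 0)).2.1, ?_⟩
    rw [conj_uEl h.1]
    exact M_inj (by rw [M_tRef h.1, M_sgEv, h.2])
  · exact Or.inr (bOK_spec (M_sgEv _) h)

theorem sgRel (a b : ℕ) (hb : b < a) (ha : a < 7) :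
    sgEl a * sgEl b = sgEl b * Collect.ev sgEl (Collect.word schConjTab a b) := by
  have h := List.all_eq_true.1 (List.all_eq_true.1 schRel_ok a (List.mem_range.2 ha)) b
    (List.mem_range.2 (hb.trans ha))
  simp only [decide_eq_true hb, Bool.not_true, Bool.false_or, beq_iff_eq] at h
  exact M_inj (by rw [M_mul, M_mul, M_sgEl, M_sgEl, M_sgEv, h])

theorem sgFus (q : List ℕ × List ℕ × List ℕ × List ℕ) (hq : q ∈ schFus) :
    ∃ g : Spor.J2, g * Collect.ev sgEl q.1 = Collect.ev sgEl q.2.2.1 * g ∧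
      g * Collect.ev sgEl q.2.1 = Collect.ev sgEl q.2.2.2 * g := by
  obtain ⟨i, hi, rfl⟩ := List.getElem_of_mem hq
  have h := List.all_eq_true.1 schFus_ok.2 i (List.mem_range.2 hi)
  rw [List.getD_eq_getElem schFus _ hi] at h
  simp only [Bool.and_eq_true, decide_eq_true_eq, beq_iff_eq] at h
  exact ⟨hEl (schFusBy.getD i 0), M_inj (by rw [M_mul, M_mul, M_hEl h.1.1, M_sgEv, M_sgEv, h.1.2]),
    M_inj (by rw [M_mul, M_mul, M_hEl h.1.1, M_sgEv, M_sgEv, h.2])⟩

theorem closure_sgEl : Subgroup.closure (Collect.tail sgEl 0) = P2 := by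
  refine le_antisymm ((Subgroup.closure_le _).2 ?_) ((Subgroup.closure_le _).2 ?_)
  · rintro x ⟨j, -, hj, rfl⟩
    have h := List.all_eq_true.1 schGen_mem j (List.mem_range.2 hj)
    exact mem_P2.2 ⟨_, by simpa using h, rfl⟩
  · rintro x ⟨a, ha, rfl⟩
    obtain ⟨i, hi, rfl⟩ := List.getElem_of_mem ha
    have h := List.all_eq_true.1 schPgen_ok.2 i (List.mem_range.2 hi)
    simp only [Bool.and_eq_true, List.all_eq_true, decide_eq_true_eq, beq_iff_eq] at h
    rw [List.getD_eq_getElem pGen _ hi] at h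
    have hlt : pGen[i] < 1920 := by
      have := List.all_eq_true.1 pGen_act _ (List.getElem_mem hi)
      simp only [Bool.and_eq_true, decide_eq_true_eq] at this
      exact this.1
    rw [SetLike.mem_coe, show hEl pGen[i] = Collect.ev sgEl (schPgen.getD i []) from
      M_inj (by rw [M_hEl hlt, M_sgEv, h.2])]
    refine list_prod_mem fun y hy => ?_
    obtain ⟨c, hc, rfl⟩ := List.mem_map.1 hy
    exact Subgroup.subset_closure ⟨c, Nat.zero_le _, h.1 c hc, rfl⟩

theorem J2_finite : Finite Spor.J2 := Nat.finite_of_card_ne_zero (by rw [card_J2]; norm_num)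

theorem eight_witness : ∃ x y z : Spor.J2, x * (y * z) = tRef 0 ∧ (∃ k, k * hEl schB * k⁻¹ = x) ∧
    (∃ k, k * hEl schB * k⁻¹ = y) ∧ (∃ k, k * hEl schB * k⁻¹ = z) ∧ (∃ k, k * hEl schB * k⁻¹ = x * y) ∧
    (∃ k, k * hEl schB * k⁻¹ = x * z) ∧ ∃ k, k * hEl schB * k⁻¹ = y * z := by
  obtain ⟨hl, h0, h1, h2, h3, h4, h5, h6⟩ := schEight_ok
  have e := M_pEl hl
  exact ⟨pEl (schEight.getD 0 (0, 0)), pEl (schEight.getD 1 (0, 0)), pEl (schEight.getD 2 (0, 0)),
    M_inj (by rw [M_mul, M_mul, e, e, e, M_tRef (by norm_num)]; exact h6),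
    bOK_spec (e 0) h0, bOK_spec (e 1) h1, bOK_spec (e 2) h2,
    bOK_spec (by rw [M_mul, e, e]; rfl) h3, bOK_spec (by rw [M_mul, e, e]; rfl) h4,
    bOK_spec (by rw [M_mul, e, e]; rfl) h5⟩

theorem no_kernel_two (Δ : Type) (iG : Group Δ) (iF : Finite Δ) (τ : Δ →* Spor.J2) (hτ : Cfsg.IsStemExtension τ)
    (z : Δ) (hz : z ∈ τ.ker) (hzo : orderOf z = 2) (hker : ∀ w ∈ τ.ker, w * w = 1)
    (hU : ∃ U : Δ, τ U = hEl schB ∧ U * U = 1) : False := by
  haveI := J2_finite
  haveI : Fact (Nat.Prime 2) := ⟨Nat.prime_two⟩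
  have hB : ∀ {q : Spor.J2}, (∃ k, k * hEl schB * k⁻¹ = q) → ∀ {X : Δ}, τ X = q → X * X = 1 := by
    intro q hq X hX
    obtain ⟨U, e, e1⟩ := hU
    rw [sq_eq_of_isConj hτ hker b_sq hq e hX, e1]
  have hA : ∀ X : Δ, τ X = tRef 0 → X * X = 1 := by
    intro X hX
    obtain ⟨x, y, w, e, hx, hy, hw, hxy, hxw, hyw⟩ := eight_witness
    obtain ⟨A, rfl⟩ := hτ.1 x
    obtain ⟨B, rfl⟩ := hτ.1 y
    obtain ⟨C, rfl⟩ := hτ.1 w
    have sA := hB hx rfl
    have sB := hB hy rfl
    have sC := hB hw rfl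
    have cab := commute_of_sq sA sB (hB hxy (map_mul τ A B))
    have cac := commute_of_sq sA sC (hB hxw (map_mul τ A C))
    have sBC := hB hyw (map_mul τ B C)
    have cA : B * C * A = A * (B * C) := by rw [mul_assoc, cac, ← mul_assoc, cab, mul_assoc]
    have sABC : A * (B * C) * (A * (B * C)) = 1 := by
      calc A * (B * C) * (A * (B * C)) = A * (B * C * A) * (B * C) := by simp only [mul_assoc]
        _ = (A * A) * ((B * C) * (B * C)) := by rw [cA]; simp only [mul_assoc]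
        _ = 1 := by rw [sA, sBC, one_mul]
    rw [sq_eq_of_isConj hτ hker (tRef_sq0) ⟨1, by simp⟩ (show τ (A * (B * C)) = tRef 0 by rw [map_mul, map_mul, e]) hX,
      sABC]
  have hinv : ∀ w ∈ schSqs, ∀ X : Δ, τ X = Collect.ev sgEl w → X * X = 1 := by
    intro w hw X hX
    rcases class_cases w hw with hc | hc
    · obtain ⟨U, hU'⟩ := hτ.1 (tRef 0)
      rw [sq_eq_of_isConj hτ hker tRef_sq0 hc hU' hX, hA U hU']
    · exact hB hc hX
  obtain ⟨S, hS⟩ := (IsPGroup.of_card (n := 7) (by rw [card_P2]; norm_num) : IsPGroup 2 P2).exists_le_sylow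
  have hS' : (S : Subgroup Spor.J2) = P2 := (Subgroup.eq_of_le_of_card_ge hS (by
    rw [card_P2, SchurTwoClass.sylow_card card_J2 Nat.prime_two (k := 7) (by norm_num) (by norm_num) S]
    norm_num)).symm
  exact Collect.no_kernel hτ hker schCert schCert_ok sgEl sgRel hinv sgFus S (hS'.trans closure_sgEl.symm)
    (by rw [hS', card_P2]) hz hzo

theorem ker_prime {Γ : Type} [Group Γ] [Finite Γ] (σ : Γ →* Spor.J2) (hσ : Cfsg.IsStemExtension σ) {z : Γ}
    (hz : z ∈ σ.ker) {q : ℕ} (hq : q.Prime) (hzo : orderOf z = q) : q = 2 := by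
  haveI := Fact.mk hq
  haveI := J2_finite
  by_contra h2
  by_cases h3 : q = 3
  · subst h3
    obtain ⟨hl, hu, hv, hne, hw, hc, hg⟩ := schThree_ok
    have e := M_pEl hl
    set u := pEl (schThree.getD 0 (0, 0)) with hud
    set v := pEl (schThree.getD 1 (0, 0)) with hvd
    set g := pEl (schThree.getD 2 (0, 0)) with hgd
    have u3 : u ^ 3 = 1 := M_inj (by rw [M_pow, hud, e, hu, M_one])
    have v3 : v ^ 3 = 1 := M_inj (by rw [M_pow, hvd, e, hv, M_one])
    have iu : u⁻¹ = u * u := inv_eq_of_mul_eq_one_right (by rw [← pow_two, ← pow_succ']; exact u3)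
    have iv : v⁻¹ = v * v := inv_eq_of_mul_eq_one_right (by rw [← pow_two, ← pow_succ']; exact v3)
    have hM : M ⁅u, v⁆ = comm3 (pcd (schThree.getD 0 (0, 0))) (pcd (schThree.getD 1 (0, 0))) := by
      rw [commutatorElement_def, iu, iv, mul_assoc (u * v), M_mul (u * v), M_mul u v, M_mul (u * u),
        M_mul u u, M_mul v v, hud, hvd, e, e, comm3]
    have w3 : ⁅u, v⁆ ^ 3 = 1 := M_inj (by rw [M_pow, hM, hw, M_one])
    have w1 : ⁅u, v⁆ ≠ 1 := fun h => hne (by rw [← hM, h, M_one])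
    have uw : u * ⁅u, v⁆ = ⁅u, v⁆ * u := M_inj (by rw [M_mul, M_mul, hM, hud, e, hc 0 (by norm_num)])
    have vw : v * ⁅u, v⁆ = ⁅u, v⁆ * v := M_inj (by rw [M_mul, M_mul, hM, hvd, e, hc 1 (by norm_num)])
    have gw : g * ⁅u, v⁆ = ⁅u, v⁆ * g := M_inj (by rw [M_mul, M_mul, hM, hgd, e, hc 2 (by norm_num)])
    have gu : g * u * g⁻¹ = u⁻¹ := by
      rw [iu]
      exact mul_inv_eq_iff_eq_mul.2 (M_inj (by rw [M_mul, M_mul _ g, M_mul u u, hud, hgd, e, e, hg 0 (by norm_num)]))
    have gv : g * v * g⁻¹ = v⁻¹ := by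
      rw [iv]
      exact mul_inv_eq_iff_eq_mul.2 (M_inj (by rw [M_mul, M_mul _ g, M_mul v v, hvd, hgd, e, e, hg 1 (by norm_num)]))
    obtain ⟨S, hS⟩ := SchurTwoClass.three_sylow
      (fun S => SchurTwoClass.sylow_card card_J2 Nat.prime_three (by norm_num) (by norm_num) S)
      u3 v3 w3 rfl uw vw w1
    exact stem_false_extraspecial hσ (by norm_num) S hS u3 v3 w3 w1 uw vw gu gw gv gw hz hzo
  by_cases h5 : q = 5
  · subst h5
    obtain ⟨hl, hu, hv, hu1, hne, hc, hg1, hg2⟩ := schFive_ok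
    have e := M_pEl hl
    set u := pEl (schFive.getD 0 (0, 0)) with hud
    set v := pEl (schFive.getD 1 (0, 0)) with hvd
    set g := pEl (schFive.getD 2 (0, 0)) with hgd
    have u5 : u ^ 5 = 1 := M_inj (by rw [M_pow, hud, e, hu, M_one])
    have v5 : v ^ 5 = 1 := M_inj (by rw [M_pow, hvd, e, hv, M_one])
    have uv : u * v = v * u := M_inj (by rw [M_mul, M_mul, hud, hvd, e, e, hc])
    obtain ⟨S, hS⟩ := SchurTwoClass.five_sylow
      (fun S => SchurTwoClass.sylow_card card_J2 (by norm_num) (by norm_num) (by norm_num) S)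
      u5 v5 uv (fun h => hu1 (by rw [← e, ← hud, h, M_one]))
      (fun i hi h => hne i hi (by rw [← e, ← hvd, h, M_pow, hud, e]))
    exact stem_false_swap hσ (by norm_num) S (g := g) hS u5 uv
      (M_inj (by rw [M_mul, M_mul, hgd, hud, hvd, e, e, e, hg1]))
      (M_inj (by rw [M_mul, M_mul, hgd, hud, hvd, e, e, e, hg2])) hz hzo
  obtain ⟨S⟩ := Sylow.nonempty (p := q) (G := Spor.J2)
  refine stem_false_cyclic hσ S ?_ hz hzo
  by_cases hd : q ∣ 604800
  · have h7 : q = 7 := by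
      rw [show (604800 : ℕ) = 2 ^ 7 * 3 ^ 3 * 5 ^ 2 * 7 by norm_num] at hd
      have hp : ∀ {r : ℕ}, r.Prime → q ∣ r → q = r := fun hr h => (Nat.prime_dvd_prime_iff_eq hq hr).1 h
      rcases (Nat.Prime.dvd_mul hq).1 hd with h | h
      rotate_left
      · exact hp (by norm_num) h
      rcases (Nat.Prime.dvd_mul hq).1 h with h | h
      rotate_left
      · exact absurd (hp (by norm_num) (hq.dvd_of_dvd_pow h)) h5
      rcases (Nat.Prime.dvd_mul hq).1 h with h | h
      · exact absurd (hp Nat.prime_two (hq.dvd_of_dvd_pow h)) h2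
      · exact absurd (hp Nat.prime_three (hq.dvd_of_dvd_pow h)) h3
    subst h7
    exact isCyclic_of_prime_card (p := 7) (by
      rw [SchurTwoClass.sylow_card card_J2 hq (k := 1) (by norm_num) (by norm_num) S, pow_one])
  · have h0 := SchurTwoClass.sylow_card card_J2 hq (k := 0) (by simp) (by rwa [pow_one]) S
    rw [pow_zero] at h0
    haveI : Subsingleton (S : Subgroup Spor.J2) := (Nat.card_eq_one_iff_unique.1 h0).1
    infer_instance

open scoped Classical in
/-- A reflection of the double cover by the index of its line. -/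
noncomputable def rEl (i : ℕ) : Spor.twoJ2 :=
  if h : lines.getD i (Ico.zero, Ico.zero, Ico.zero) ∈ lines then ⟨reflPerm h, reflPerm_mem h⟩ else 1

theorem cmat_rEl_prod : ∀ w : List ℕ, (∀ i ∈ w, i < lines.length) → cmat (w.map rEl).prod = wordMat w
  | [], _ => by rw [List.map_nil, List.prod_nil, cmat_one, wordMat, List.foldr_nil]
  | i :: w, h => by
    have hr : lines.getD i (Ico.zero, Ico.zero, Ico.zero) ∈ lines := by
      rw [List.getD_eq_getElem _ _ (h i List.mem_cons_self)]; exact List.getElem_mem _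
    rw [List.map_cons, List.prod_cons, cmat_mul, cmat_rEl_prod w fun j hj => h j (List.mem_cons_of_mem _ hj),
      rEl, dif_pos hr, (cmat_acts ⟨_, reflPerm_mem hr⟩).unique (reflPerm_acts hr), wordMat, wordMat, List.foldr_cons]

theorem cover_stem : ∃ σ : Spor.twoJ2 →* Spor.J2, Cfsg.IsStemExtension σ ∧ Nat.card σ.ker = 2 := by
  have hk : (QuotientGroup.mk' (Subgroup.center Spor.twoJ2)).ker = Subgroup.center Spor.twoJ2 :=
    QuotientGroup.ker_mk' _
  refine ⟨QuotientGroup.mk' (Subgroup.center Spor.twoJ2), ⟨QuotientGroup.mk'_surjective _, hk.le, ?_⟩,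
    by rw [hk, card_center]⟩
  rw [hk]
  have hlt := List.all_eq_true.1 schXY_lt
  simp only [List.mem_append, decide_eq_true_eq] at hlt
  set X := (schX.map rEl).prod with hX
  set Y := (schY.map rEl).prod with hY
  have c1 : cmat (X * Y) = wordMat (schX ++ schY) := by
    rw [hX, hY, ← List.prod_append, ← List.map_append, cmat_rEl_prod _ fun i hi => hlt i (List.mem_append.1 hi)]
  have c2 : cmat (Y * X) = wordMat (schY ++ schX) := by
    rw [hX, hY, ← List.prod_append, ← List.map_append, cmat_rEl_prod _ fun i hi => hlt i (List.mem_append.1 hi).symm]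
  have hne : ⁅X, Y⁆ ≠ 1 := fun h =>
    schXY_ne (by rw [← c1, ← c2, commutatorElement_eq_one_iff_mul_comm.1 h])
  have hmem : ⁅X, Y⁆ ∈ Subgroup.center Spor.twoJ2 := by
    rw [← QuotientGroup.eq_one_iff, ← QuotientGroup.mk'_apply, map_commutatorElement,
      commutatorElement_eq_one_iff_mul_comm, ← map_mul, ← map_mul]
    exact M_inj (by rw [QuotientGroup.mk'_apply, QuotientGroup.mk'_apply, M_mk, M_mk, N, N, c1, c2, schXY_code])
  intro g hg
  have h1 : g ∈ ({1, negOne} : Set Spor.twoJ2) := center_eq ▸ hg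
  have h2 : ⁅X, Y⁆ ∈ ({1, negOne} : Set Spor.twoJ2) := center_eq ▸ hmem
  have hc : ⁅X, Y⁆ ∈ commutator Spor.twoJ2 :=
    Subgroup.commutator_mem_commutator (Subgroup.mem_top X) (Subgroup.mem_top Y)
  rcases h1 with rfl | h1
  · exact one_mem _
  · rwa [Set.mem_singleton_iff.1 h1, ← Set.mem_singleton_iff.1 (h2.resolve_left hne)]

theorem schur_multiplier : Cfsg.HasCyclicSchurMultiplier Spor.J2 2 := by
  refine ⟨?_, fun Γ _ _ σ hσ => ?_⟩
  · haveI : Fact (Nat.Prime 2) := ⟨Nat.prime_two⟩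
    obtain ⟨σ, hσ, hcard⟩ := cover_stem
    haveI : Finite Spor.twoJ2 := Nat.finite_of_card_ne_zero (by rw [card_twoJ2]; norm_num)
    refine ⟨↥Spor.twoJ2, inferInstance, inferInstance, σ, hσ, ?_⟩
    haveI : IsCyclic σ.ker := isCyclic_of_prime_card (p := 2) hcard
    exact ⟨mulEquivOfCyclicCardEq (hcard.trans (Nat.card_zmod 2).symm)⟩
  · obtain ⟨h0, h1, h2⟩ := schFour_ok
    have e := M_pEl schEight_ok.1
    obtain ⟨w, hw, hall⟩ := SchurTwoClass.ker_le_two σ hσ b_sq
      (bOK_spec (e 0) h0) (bOK_spec (e 1) h1) (bOK_spec (by rw [M_mul, e, e]; rfl) h2) no_kernel_two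
      (fun z hz q hq hzo => ker_prime σ hσ hz hq hzo)
    let f : Multiplicative (ZMod 2) →* σ.ker :=
      { toFun := fun x => if x = 1 then 1 else w
        map_one' := if_pos rfl
        map_mul' := fun x y => by
          rcases (by decide : ∀ a : Multiplicative (ZMod 2), a = 1 ∨ a = Multiplicative.ofAdd 1) x with rfl | rfl <;>
          rcases (by decide : ∀ a : Multiplicative (ZMod 2), a = 1 ∨ a = Multiplicative.ofAdd 1) y with rfl | rfl <;>
          simp [hw, show (Multiplicative.ofAdd (1 : ZMod 2)) ≠ 1 by decide,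
            show (Multiplicative.ofAdd (1 : ZMod 2)) * Multiplicative.ofAdd 1 = 1 by decide] }
    refine ⟨f, fun x => ?_⟩
    rcases hall x with rfl | rfl
    · exact ⟨1, f.map_one⟩
    · exact ⟨Multiplicative.ofAdd 1, by simp [f, show (Multiplicative.ofAdd (1 : ZMod 2)) ≠ 1 by decide]⟩

end Cfsg.Agent.FGS2.J2
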