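import Cfsg.Agent.FGS2.J2.Elements

/-!
The Hall–Janko group is simple: the stabiliser is maximal, has a central involution whose conjugates generate,
and that involution is a commutator.
-/

set_option autoImplicit false
set_option maxRecDepth 100000

namespace Cfsg.Agent.FGS2.J2

theorem union_divides : ((List.range 64).all fun mask => !(mask % 2 == 1) ||
    !(604800 % (1920 * ((List.range 315).countP fun n => mask / 2 ^ subJ n % 2 == 1)) == 0) ||
    mask == 1 || mask == 63) = true := by decide +kernel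

theorem subJ_zero : ∀ n < 315, subJ n = 0 → n = 0 := by decide +kernel

theorem subJ_of_zero : subJ 0 = 0 := by decide +kernel

theorem subR_spec : ∀ j < 6, subR j < 315 ∧ subJ (subR j) = j := by decide +kernel

theorem stab_maximal {K : Subgroup Spor.J2} (hK : stab ≤ K) : K = stab ∨ K = ⊤ := by
  classical
  have hu : ∀ n < 315, ∀ m < 1920, (uEl n * hEl m ∈ K ↔ uEl n ∈ K) :=
    fun n _ m hm => Subgroup.mul_mem_cancel_right K (hK (hEl_mem hm))
  have hfix : ∀ n < 315, uEl n ∈ K ↔ uEl (subR (subJ n)) ∈ K := by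
    intro n hn
    obtain ⟨-, hh, hr, e⟩ := sub_spec hn
    have hx : hEl (subH n) * uEl n ∈ K ↔ uEl n ∈ K := Subgroup.mul_mem_cancel_left K (hK (hEl_mem hh))
    obtain ⟨c, hc, m, hm, ec⟩ := exists_el (hEl (subH n) * uEl n)
    have : c = subR (subJ n) := by
      refine tRef_inj hc hr ?_
      rw [← e, ← conj_el hc hm, ← ec, ← conj_uEl hn]
      group
    subst this
    rw [← hx, ec, hu _ hc m hm]
  let mask : ℕ := ∑ j ∈ Finset.range 6, if uEl (subR j) ∈ K then 2 ^ j else 0
  have hbit : ∀ j < 6, (mask / 2 ^ j % 2 = 1 ↔ uEl (subR j) ∈ K) := by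
    intro j hj
    simp only [mask, Finset.sum_range_succ, Finset.sum_range_zero, zero_add]
    interval_cases j <;> split_ifs <;> simp_all
  have hmlt : mask < 64 := by
    simp only [mask, Finset.sum_range_succ, Finset.sum_range_zero, zero_add]
    split_ifs <;> norm_num
  have h0 : mask % 2 = 1 := by
    have := (hbit 0 (by norm_num)).2 (by
      rw [show subR 0 = 0 by decide +kernel, uEl_zero]; exact one_mem K)
    simpa using this
  have hcard : Nat.card K = 1920 * ((List.range 315).countP fun n => mask / 2 ^ subJ n % 2 == 1) := by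
    have hb : Function.Bijective (fun p : {n : Fin 315 // uEl n ∈ K} × Fin 1920 =>
        (⟨uEl p.1.1 * hEl p.2, (hu _ p.1.1.2 _ p.2.2).2 p.1.2⟩ : K)) := by
      constructor
      · rintro ⟨⟨n, hn⟩, m⟩ ⟨⟨n', hn'⟩, m'⟩ h
        have h := congrArg Subtype.val h
        simp only at h
        have e : (n : ℕ) = n' := tRef_inj n.2 n'.2 (by rw [← conj_el n.2 m.2, h, conj_el n'.2 m'.2])
        have e' : n = n' := Fin.ext e
        subst e'
        have := hEl_inj m.2 m'.2 (mul_left_cancel h)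
        simp only [Prod.mk.injEq]
        exact ⟨trivial, Fin.ext this⟩
      · rintro ⟨g, hg⟩
        obtain ⟨n, hn, m, hm, rfl⟩ := exists_el g
        exact ⟨⟨⟨⟨n, hn⟩, (hu n hn m hm).1 hg⟩, ⟨m, hm⟩⟩, rfl⟩
    rw [← Nat.card_eq_of_bijective _ hb, Nat.card_prod, Nat.card_fin, mul_comm, Nat.card_eq_fintype_card,
      Fintype.card_subtype]
    congr 1
    have : ∀ n : Fin 315, (uEl n ∈ K ↔ mask / 2 ^ subJ n % 2 = 1) := fun n => by
      rw [hfix n n.2, hbit _ (sub_spec n.2).1]
    simp only [this]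
    rw [List.countP_eq_length_filter, ← List.toFinset_card_of_nodup (List.nodup_range.filter _),
      ← Finset.card_map Fin.valEmbedding]
    congr 1
    ext x
    simp only [Finset.mem_map, Finset.mem_filter, Finset.mem_univ, true_and, Fin.valEmbedding_apply, List.mem_toFinset,
      List.mem_filter, List.mem_range, beq_iff_eq]
    exact ⟨fun ⟨a, ha, e⟩ => e ▸ ⟨a.2, ha⟩, fun ⟨a, b⟩ => ⟨⟨x, a⟩, b, rfl⟩⟩
  have hdvd : Nat.card K ∣ 604800 := card_J2 ▸ Subgroup.card_subgroup_dvd_card K
  have h := List.all_eq_true.1 union_divides mask (List.mem_range.2 hmlt)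
  rw [hcard] at hdvd
  simp only [h0, Nat.mod_eq_zero_of_dvd hdvd, beq_self_eq_true, Bool.not_true, Bool.false_or, Bool.or_eq_true,
    beq_iff_eq] at h
  have hbase : ∀ n < 315, (uEl n ∈ K ↔ mask / 2 ^ subJ n % 2 = 1) := fun n hn => by
    rw [hfix n hn, hbit _ (sub_spec hn).1]
  rcases h with h | h
  · left
    refine le_antisymm (fun g hg => ?_) hK
    obtain ⟨n, hn, m, hm, rfl⟩ := exists_el g
    have hb := (hbase n hn).1 ((hu n hn m hm).1 hg)
    rw [h] at hb
    have : subJ n = 0 := by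
      by_contra hne
      rw [Nat.div_eq_of_lt (Nat.one_lt_two_pow hne)] at hb
      simp at hb
    rw [subJ_zero n hn this, uEl_zero, one_mul]
    exact hEl_mem hm
  · right
    refine eq_top_iff.2 fun g _ => ?_
    obtain ⟨n, hn, m, hm, rfl⟩ := exists_el g
    refine (hu n hn m hm).2 ((hbase n hn).2 ?_)
    have := (sub_spec hn).1
    rw [h]
    interval_cases subJ n <;> norm_num

theorem comm_check : mmul (hAt 1373) (hAt 291) = mmul (tc 0) (mmul (hAt 291) (hAt 1373)) := by decide +kernel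

theorem center_trivial {g : Spor.J2} (h : ∀ n < 315, g * tRef n = tRef n * g) : g = 1 := by
  obtain ⟨m, hm, rfl⟩ := stab_exists (mem_stab.2 (h 0 (by norm_num)))
  have hc := List.all_eq_true.1 centOK_all m (List.mem_range.2 hm)
  simp only [centOK, Bool.or_eq_true, decide_eq_true_eq, List.any_eq_true, List.mem_range,
    Bool.not_eq_true', beq_eq_false_iff_ne] at hc
  rcases hc with rfl | ⟨a, ha, hne⟩
  · exact M_inj (by rw [M_hEl hm, (h_spec hm).1 rfl, M_one])
  · exfalso
    have hp := List.all_eq_true.1 tPos_spec _ (List.mem_range.2 (kIdx_lt a ha))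
    simp only [Bool.and_eq_true, decide_eq_true_eq, beq_iff_eq] at hp
    have := congrArg M (h _ hp.1)
    rw [M_mul, M_mul, M_hEl hm, M_tRef hp.1, hp.2] at this
    exact hne this.symm

theorem tRef_ne_one : tRef 0 ≠ 1 := fun h => by
  have := congrArg M h
  rw [M_tRef (by norm_num), M_one] at this
  exact absurd this (by decide +kernel)

theorem tRef_commutator :
    tRef 0 = hEl 1373 * hEl 291 * (hEl 1373)⁻¹ * (hEl 291)⁻¹ := by
  refine eq_mul_inv_iff_mul_eq.2 (eq_mul_inv_iff_mul_eq.2 (M_inj ?_))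
  rw [mul_assoc, M_mul, M_mul, M_mul, M_hEl (by norm_num), M_hEl (by norm_num), M_tRef (by norm_num), comm_check]

theorem not_comm : ∃ a b : Spor.J2, a * b ≠ b * a :=
  ⟨hEl 1373, hEl 291, fun h => tRef_ne_one (by rw [tRef_commutator, h, mul_inv_cancel_right, mul_inv_cancel])⟩

theorem simple_J2 : IsSimpleGroup Spor.J2 := by
  haveI : Nontrivial Spor.J2 := ⟨⟨tRef 0, 1, tRef_ne_one⟩⟩
  refine ⟨fun Nn hN => ?_⟩
  haveI := hN
  rcases stab_maximal (le_sup_right (a := Nn) (b := stab)) with h | h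
  · left
    have hle : Nn ≤ stab := h ▸ le_sup_left
    refine (Subgroup.eq_bot_iff_forall _).2 fun x hx => center_trivial fun n hn => ?_
    have hc := mem_stab.1 (hle (hN.conj_mem x hx (uEl n)⁻¹))
    rw [inv_inv] at hc
    rw [← conj_uEl hn]
    calc x * (uEl n * tRef 0 * (uEl n)⁻¹) = uEl n * (((uEl n)⁻¹ * x * uEl n) * tRef 0) * (uEl n)⁻¹ := by group
      _ = uEl n * (tRef 0 * ((uEl n)⁻¹ * x * uEl n)) * (uEl n)⁻¹ := by rw [hc]
      _ = _ := by group
  · right
    have key : ∀ q : Spor.J2 ⧸ Nn, Commute q (QuotientGroup.mk' Nn (tRef 0)) := by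
      intro q
      obtain ⟨g, rfl⟩ := QuotientGroup.mk'_surjective Nn q
      obtain ⟨a, ha, b, hb, rfl⟩ := Subgroup.mem_sup_of_normal_left.1 (h.symm ▸ Subgroup.mem_top g)
      rw [map_mul, show QuotientGroup.mk' Nn a = 1 from (QuotientGroup.eq_one_iff a).2 ha, one_mul]
      show _ * _ = _ * _
      rw [← map_mul, ← map_mul, mem_stab.1 hb]
    have him : ∀ n < 315, QuotientGroup.mk' Nn (tRef n) = QuotientGroup.mk' Nn (tRef 0) := fun n hn => by
      rw [← conj_uEl hn, map_mul, map_mul, map_inv, (key _).eq, mul_inv_cancel_right]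
    have hz : ∀ q : Spor.J2 ⧸ Nn, q ∈ Subgroup.zpowers (QuotientGroup.mk' Nn (tRef 0)) := by
      intro q
      obtain ⟨g, rfl⟩ := QuotientGroup.mk'_surjective Nn q
      have hg : g ∈ Subgroup.closure {g : Spor.J2 | ∃ n < 315, g = tRef n} := closure_tRef.symm ▸ Subgroup.mem_top g
      refine (Subgroup.closure_le ((Subgroup.zpowers _).comap (QuotientGroup.mk' Nn))).2 ?_ hg
      rintro _ ⟨n, hn, rfl⟩
      show QuotientGroup.mk' Nn (tRef n) ∈ Subgroup.zpowers (QuotientGroup.mk' Nn (tRef 0))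
      rw [him n hn]
      exact Subgroup.mem_zpowers _
    have comm : ∀ a b : Spor.J2, QuotientGroup.mk' Nn a * QuotientGroup.mk' Nn b =
        QuotientGroup.mk' Nn b * QuotientGroup.mk' Nn a := by
      intro a b
      obtain ⟨i, hi⟩ := hz (QuotientGroup.mk' Nn a)
      obtain ⟨j, hj⟩ := hz (QuotientGroup.mk' Nn b)
      rw [← hi, ← hj, ← zpow_add, ← zpow_add, add_comm]
    have ht : tRef 0 ∈ Nn := by
      rw [← QuotientGroup.eq_one_iff (N := Nn), ← QuotientGroup.mk'_apply, tRef_commutator, map_mul, map_mul, map_mul,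
        map_inv, map_inv, comm (hEl 1373) (hEl 291), mul_inv_cancel_right, mul_inv_cancel]
    refine eq_top_iff.2 (closure_tRef ▸ (Subgroup.closure_le _).2 ?_)
    rintro _ ⟨n, hn, rfl⟩
    rw [← conj_uEl hn]
    exact hN.conj_mem _ ht _

end Cfsg.Agent.FGS2.J2
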