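import Cfsg.Agent.FGS2.J2.CheckH
import Cfsg.Agent.Core.GTwoTwo.Main

/-!
A subgroup of index 100 in the Hall–Janko group isomorphic to `PSU₃(3)`, and its suborbits.
-/

set_option autoImplicit false
set_option maxRecDepth 100000

namespace Cfsg.Agent.FGS2.J2

open Cfsg.Agent.Core.GTwoTwo (pU pU_bij)

noncomputable instance finite_J2 : Finite Spor.J2 := Nat.finite_of_card_ne_zero (by rw [card_J2]; norm_num)

/-- A generator. -/
noncomputable def uG (g : Fin 2) : Spor.J2 := ofCode (uA g.val)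

theorem M_uG (g : Fin 2) : M (uG g) = uA g.val :=
  M_ofCode (lift_el (uGen_lt g.val g.2).1 (uGen_lt g.val g.2).2)

/-- The subgroup. -/
noncomputable def U : Subgroup Spor.J2 := Subgroup.closure (Set.range uG)

theorem uG_mem (g : Fin 2) : uG g ∈ U := Subgroup.subset_closure ⟨g, rfl⟩

theorem lift_uA {g : ℕ} (hg : g < 2) : Lift (uA g) := lift_el (uGen_lt g hg).1 (uGen_lt g hg).2

theorem ue_mem : ∀ i, i < 6048 → ∃ u ∈ U, M u = ueAt i := by
  intro i
  induction i using Nat.strong_induction_on with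
  | _ i ih =>
    intro hi
    have h := List.all_eq_true.1 ueOK_all i (List.mem_range.2 hi)
    unfold ueOK at h
    split_ifs at h with h0
    · exact ⟨1, one_mem U, by rw [M_one, beq_iff_eq.1 h]⟩
    · simp only [Bool.and_eq_true, decide_eq_true_eq, beq_iff_eq] at h
      obtain ⟨u, hu, e⟩ := ih _ h.1 (by omega)
      refine ⟨uG ⟨getT ueparTab 96 i % 2, Nat.mod_lt _ (show 2 > 0 by norm_num)⟩ * u, mul_mem (uG_mem _) hu, ?_⟩
      rw [M_mul, M_uG, e, h.2]

theorem mem_list {u : Spor.J2} (hu : u ∈ U) :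
    ∀ i < 6048, ∃ j < 6048, mmul (M u) (ueAt i) = ueAt j := by
  let S : Submonoid Spor.J2 :=
    { carrier := {u | ∀ i < 6048, ∃ j < 6048, mmul (M u) (ueAt i) = ueAt j}
      one_mem' := fun i hi => by
        obtain ⟨w, -, e⟩ := ue_mem i hi
        exact ⟨i, hi, by rw [← e, ← M_mul, one_mul]⟩
      mul_mem' := fun {a b} ha hb i hi => by
        obtain ⟨w, -, ew⟩ := ue_mem i hi
        obtain ⟨j, hj, e⟩ := hb i hi
        obtain ⟨k, hk, e'⟩ := ha j hj
        exact ⟨k, hk, by rw [← e', ← e, ← ew, ← M_mul, ← M_mul, ← M_mul, mul_assoc]⟩ }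
  suffices h : U.toSubmonoid ≤ S from h hu
  rw [U, Subgroup.closure_toSubmonoid_of_finite, Submonoid.closure_le]
  rintro _ ⟨g, rfl⟩ i hi
  have h := List.all_eq_true.1 (List.all_eq_true.1 uactOK_all g.val (List.mem_range.2 g.2)) i (List.mem_range.2 hi)
  simp only [uactOK, Bool.and_eq_true, decide_eq_true_eq, beq_iff_eq] at h
  exact ⟨_, h.1, by rw [M_uG, h.2]⟩

theorem exists_index {u : Spor.J2} (hu : u ∈ U) : ∃ i < 6048, M u = ueAt i := by
  obtain ⟨j, hj, e⟩ := mem_list hu 0 (by norm_num)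
  refine ⟨j, hj, ?_⟩
  have h := List.all_eq_true.1 ueOK_all 0 (List.mem_range.2 (by norm_num))
  simp only [ueOK, if_pos, beq_iff_eq] at h
  rwa [h, ← M_one, ← M_mul, mul_one] at e

theorem card_U_le : Nat.card U ≤ 6048 := by
  choose f hf hfe using fun u : U => exists_index u.2
  have hinj : Function.Injective fun u : U => (⟨f u, hf u⟩ : Fin 6048) := fun a b h =>
    Subtype.ext (M_inj (by rw [hfe, hfe, show f a = f b from congrArg Fin.val h]))
  simpa using Nat.card_le_card_of_injective _ hinj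

/-- One of the 63 reflections. -/
noncomputable def lT (i : Fin 63) : Spor.J2 := tRef (labAt i.val)

theorem lab_lt (i : Fin 63) : labAt i.val < 315 := by
  have h := List.all_eq_true.1 uLab_lt i.val (List.mem_range.2 i.2)
  simp only [Bool.and_eq_true, decide_eq_true_eq] at h
  exact h.1

theorem lT_inj : Function.Injective lT := by
  intro i j h
  have e := tRef_inj (lab_lt i) (lab_lt j) h
  by_contra hne
  rcases lt_or_gt_of_ne hne with hlt | hlt
  · have := List.all_eq_true.1 uLab_lt j.val (List.mem_range.2 j.2)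
    simp only [Bool.and_eq_true, List.all_eq_true] at this
    have := this.2 i.val (List.mem_range.2 hlt)
    simp [e] at this
  · have := List.all_eq_true.1 uLab_lt i.val (List.mem_range.2 i.2)
    simp only [Bool.and_eq_true, List.all_eq_true] at this
    have := this.2 j.val (List.mem_range.2 hlt)
    simp [e] at this

theorem uG_conj (g : Fin 2) (i : Fin 63) : uG g * lT i = lT (pU g i) * uG g := by
  have h := List.all_eq_true.1 (List.all_eq_true.1 uconj g (List.mem_finRange g)) i (List.mem_finRange i)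
  simp only [beq_iff_eq] at h
  exact M_inj (by rw [M_mul, M_mul, M_uG, lT, lT, M_tRef (lab_lt i), M_tRef (lab_lt _), h])

theorem conj_perm {u : Spor.J2} (hu : u ∈ U) : ∃ σ : Equiv.Perm (Fin 63), ∀ i, u * lT i = lT (σ i) * u := by
  induction hu using Subgroup.closure_induction with
  | mem x hx =>
    obtain ⟨g, rfl⟩ := hx
    exact ⟨Equiv.ofBijective (pU g) (Finite.injective_iff_bijective.1 (pU_bij g)), uG_conj g⟩
  | one => exact ⟨1, fun i => by simp⟩
  | mul x y _ _ hx hy =>
    obtain ⟨σ, hσ⟩ := hx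
    obtain ⟨τ, hτ⟩ := hy
    exact ⟨σ * τ, fun i => by rw [mul_assoc, hτ, ← mul_assoc, hσ, mul_assoc, Equiv.Perm.mul_apply]⟩
  | inv x _ hx =>
    obtain ⟨σ, hσ⟩ := hx
    refine ⟨σ⁻¹, fun i => ?_⟩
    obtain ⟨j, rfl⟩ := σ.surjective i
    rw [show σ⁻¹ (σ j) = j from σ.symm_apply_apply j, inv_mul_eq_iff_eq_mul, ← mul_assoc, hσ, mul_inv_cancel_right]

/-- The action on the 63 reflections. -/
noncomputable def uPerm : U →* Equiv.Perm (Fin 63) :=
  MonoidHom.mk' (fun u => (conj_perm u.2).choose) fun a b => Equiv.ext fun i => lT_inj (mul_right_cancel (b := (a * b : U).1) (by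
    rw [← (conj_perm (a * b).2).choose_spec]
    show (a.1 * b.1) * lT i = _ * (a.1 * b.1)
    rw [mul_assoc, (conj_perm b.2).choose_spec, ← mul_assoc, (conj_perm a.2).choose_spec, mul_assoc,
      Equiv.Perm.mul_apply]))

theorem uPerm_spec (u : U) (i : Fin 63) : u.1 * lT i = lT (uPerm u i) * u.1 := (conj_perm u.2).choose_spec i

theorem structure_U (K : Type) [Field K] [Fintype K] (hK : Fintype.card K = 9) :
    Nat.card U = 6048 ∧ Nonempty (U ≃* Cfsg.PSU 3 K 3) := by
  obtain ⟨ρ, hinj, hgen⟩ := Core.GTwoTwo.su_side hK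
  have hK' : Fintype.card K = 3 ^ 2 := by rw [hK]; norm_num
  have hle : ρ.range ≤ uPerm.range := hgen _ fun k =>
    ⟨uPerm ⟨uG k, uG_mem k⟩, ⟨_, rfl⟩, fun i => lT_inj (mul_right_cancel (b := uG k) (by
      rw [← uPerm_spec ⟨uG k, uG_mem k⟩ i, uG_conj]))⟩
  have hρ : Nat.card ρ.range = 6048 := by
    rw [← Nat.card_congr (MonoidHom.ofInjective hinj).toEquiv, Core.PSU33.card_SU33 hK']
  have h1 : Nat.card ρ.range ≤ Nat.card uPerm.range := Subgroup.card_le_of_le hle
  have h2 : Nat.card uPerm.range ≤ Nat.card U :=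
    Nat.card_le_card_of_surjective _ uPerm.rangeRestrict_surjective
  have h3 := card_U_le
  have hc : Nat.card U = 6048 := by omega
  have heq : ρ.range = uPerm.range := Subgroup.eq_of_le_of_card_ge hle (by omega)
  have hb : Function.Bijective uPerm.rangeRestrict :=
    (Nat.bijective_iff_surjective_and_card _).2 ⟨uPerm.rangeRestrict_surjective, by omega⟩
  exact ⟨hc, ⟨(MulEquiv.ofBijective uPerm.rangeRestrict hb).trans <| (MulEquiv.subgroupCongr heq.symm).trans <|
    (MonoidHom.ofInjective hinj).symm.trans (Core.PSU33.quotEquiv hK').symm⟩⟩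

theorem orbit_card {L start : ℕ} {rep par act : List ℕ} {cj : List (List ℕ)} {msk : List ℕ} (hL : 0 < L)
    (hs : start / 2048 < 315 ∧ start % 2048 < 1920) (hok : orbOK L start rep par act cj msk = true) :
    ∃ c : Spor.J2 ⧸ U, (MulAction.orbit U c).ncard = L := by
  simp only [orbOK, Bool.and_eq_true, List.all_eq_true, List.mem_range, Bool.or_eq_true, decide_eq_true_eq,
    beq_iff_eq, List.any_eq_true, Bool.not_eq_true'] at hok
  obtain ⟨⟨⟨⟨h0, hpar⟩, hact⟩, hcj⟩, hsep⟩ := hok
  let x : Spor.J2 := uEl (start / 2048) * hEl (start % 2048)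
  have hx : M x = rep.getD 0 0 := by rw [M_mul, M_uEl hs.1, M_hEl hs.2, h0]; rfl
  have hreach : ∀ i, i < L → ∃ u : U, M (u.1 * x) = rep.getD i 0 := by
    intro i
    induction i using Nat.strong_induction_on with
    | _ i ih =>
      intro hi
      rcases hpar i hi with rfl | ⟨hp, he⟩
      · exact ⟨1, by simpa using hx⟩
      · obtain ⟨u, hu⟩ := ih _ hp (by omega)
        refine ⟨⟨uG ⟨par.getD i 0 % 2, Nat.mod_lt _ (show 2 > 0 by norm_num)⟩, uG_mem _⟩ * u, ?_⟩
        rw [Subgroup.coe_mul, mul_assoc, M_mul, M_uG, hu, he]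
  choose w hw using fun i : Fin L => hreach i i.2
  let cs : Fin L → Spor.J2 ⧸ U := fun i => QuotientGroup.mk ((w i).1 * x)
  have hinj : Function.Injective cs := by
    have main : ∀ i j : Fin L, j.val < i.val → cs i ≠ cs j := by
      intro i j hji h
      obtain ⟨u, hu⟩ : ∃ u : U, (w i).1 * x = (w j).1 * x * u.1 := by
        have := QuotientGroup.eq.1 h.symm
        exact ⟨⟨_, this⟩, by simp [mul_assoc]⟩
      obtain ⟨s, hs', hbit⟩ := hsep i i.2 j hji
      obtain ⟨⟨hlt, e⟩, -⟩ := hcj i i.2 s hs'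
      let t : Fin 63 := uPerm u ⟨s, hs'⟩
      obtain ⟨⟨hlt', e'⟩, hb'⟩ := hcj j j.2 t.val t.2
      have k1 : (w i).1 * x * lT ⟨s, hs'⟩ = tRef (getT cj 63 (63 * i.val + s)) * ((w i).1 * x) :=
        M_inj (by rw [M_mul ((w i).1 * x), M_mul (tRef _), hw, lT, M_tRef (lab_lt _), M_tRef hlt, e])
      have k2 : (w j).1 * x * lT t = tRef (getT cj 63 (63 * j.val + t.val)) * ((w j).1 * x) :=
        M_inj (by rw [M_mul ((w j).1 * x), M_mul (tRef _), hw, lT, M_tRef (lab_lt _), M_tRef hlt', e'])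
      have k3 : (w i).1 * x * lT ⟨s, hs'⟩ = tRef (getT cj 63 (63 * j.val + t.val)) * ((w i).1 * x) := by
        rw [hu, mul_assoc, uPerm_spec, ← mul_assoc, k2, mul_assoc]
      have := tRef_inj hlt hlt' (mul_right_cancel (k1.symm.trans k3))
      rw [this, hb'] at hbit
      exact absurd hbit (by simp)
    intro i j h
    rcases lt_trichotomy i.val j.val with hlt | he | hlt
    · exact absurd h.symm (main j i hlt)
    · exact Fin.ext he
    · exact absurd h (main i j hlt)
  refine ⟨QuotientGroup.mk x, ?_⟩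
  have horb : MulAction.orbit U (QuotientGroup.mk x : Spor.J2 ⧸ U) = Set.range cs := by
    refine Set.Subset.antisymm ?_ ?_
    · have hclosed : ∀ u : Spor.J2, u ∈ U → ∀ c ∈ Set.range cs, u • c ∈ Set.range cs := by
        intro u hu
        have hu' : u ∈ Submonoid.closure (Set.range uG) := by
          rw [← Subgroup.closure_toSubmonoid_of_finite]; exact hu
        induction hu' using Submonoid.closure_induction with
        | mem y hy =>
          obtain ⟨g, rfl⟩ := hy
          rintro _ ⟨i, rfl⟩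
          obtain ⟨⟨hj, hh⟩, e⟩ := hact g.val g.2 i.val i.2
          obtain ⟨v, hv, ev⟩ := ue_mem _ hh
          refine ⟨⟨_, hj⟩, ?_⟩
          have k : uG g * ((w i).1 * x) = (w ⟨_, hj⟩).1 * x * v :=
            M_inj (by rw [M_mul, M_mul _ v, M_uG, hw, hw, ev, e])
          show QuotientGroup.mk _ = QuotientGroup.mk (uG g * ((w i).1 * x))
          rw [k, QuotientGroup.mk_mul_of_mem _ hv]
        | one => intro c hc; rwa [one_smul]
        | mul y z hy hz iy iz =>
          intro c hc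
          have hy' : y ∈ U := by rw [U, ← Subgroup.mem_toSubmonoid, Subgroup.closure_toSubmonoid_of_finite]; exact hy
          have hz' : z ∈ U := by rw [U, ← Subgroup.mem_toSubmonoid, Subgroup.closure_toSubmonoid_of_finite]; exact hz
          rw [mul_smul]; exact iy hy' _ (iz hz' _ hc)
      have hbase : (QuotientGroup.mk x : Spor.J2 ⧸ U) ∈ Set.range cs :=
        ⟨⟨0, hL⟩, congrArg QuotientGroup.mk (M_inj ((hw ⟨0, hL⟩).trans hx.symm))⟩
      rintro _ ⟨u, rfl⟩
      exact hclosed u.1 u.2 _ hbase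
    · rintro _ ⟨i, rfl⟩
      exact ⟨w i, rfl⟩
  rw [horb, Set.ncard_range_of_injective hinj, Nat.card_fin]

theorem index_100 : ∃ H : Subgroup Spor.J2, H.index = 100 ∧
    (∃ (F : Type) (_ : Field F) (_ : Fintype F), Fintype.card F = 9 ∧ Nonempty (↥H ≃* Cfsg.PSU 3 F 3)) ∧
    ∃ c₁ c₂ : Spor.J2 ⧸ H, (MulAction.orbit ↥H c₁).ncard = 36 ∧ (MulAction.orbit ↥H c₂).ncard = 63 := by
  haveI : Fact (Nat.Prime 3) := ⟨Nat.prime_three⟩
  letI := Fintype.ofFinite (GaloisField 3 2)
  have hF : Fintype.card (GaloisField 3 2) = 9 := by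
    rw [← Nat.card_eq_fintype_card, GaloisField.card 3 2 two_ne_zero]; norm_num
  obtain ⟨hc, he⟩ := structure_U (GaloisField 3 2) hF
  refine ⟨U, ?_, ⟨GaloisField 3 2, inferInstance, inferInstance, hF, he⟩, ?_⟩
  · have := Subgroup.card_mul_index U
    rw [hc, card_J2] at this
    omega
  · obtain ⟨c₁, h1⟩ := orbit_card (by norm_num) starts_lt.1 saOK
    obtain ⟨c₂, h2⟩ := orbit_card (by norm_num) starts_lt.2 sbOK
    exact ⟨c₁, c₂, h1, h2⟩

end Cfsg.Agent.FGS2.J2
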